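import Cfsg.Agent.H7.Xs.Co1A

set_option autoImplicit false
set_option maxRecDepth 100000

namespace CfsgH7.Co1.Xs

set_option Elab.async false

open CfsgH7.Co1

noncomputable def eE : G0 ≃* Cfsg.Spor.Co1 := iso.choose.symm
noncomputable scoped instance act : MulAction Cfsg.Spor.Co1 (Fin 98280) := MulAction.compHom _ eE.symm.toMonoidHom
noncomputable def g2 : Nat → Cfsg.Spor.Co1 := fun j => eE (g1 j)
theorem M2 : Md (finPt 98280) 98280 g2 l1 4 4157776806543360000 bs := M1.congr eE
def xS : List (List Nat) := [[16],[18],[20],[22],[24],[26],[28],[30],[8]]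
theorem xP : Pc (fun j => wprod g2 (wordAt xS j)) 2 xS.length :=
  M2.pc [[],[],[],[],[],[],[],[],[]] [[], [[2,16]], [[4,16],[4,16]], [[6,16],[6,16],[6,16]], [[8,16],[8],[8],[8,16]], [[10,16],[10],[10],[10],[10]], [[12,16],[12,16],[12],[12,16],[12],[12,16]], [[14],[14],[14,16],[14],[14,16],[14,16],[14,16]], [[16],[16],[16],[16],[16],[16],[16],[16]]] (by decide +kernel) (M2.ge xS [⟨0, [[0],[2],[4],[6],[8],[10],[12],[14],[16]], [0,1,2,3,4,5,6,7,8], 512⟩] 17 (by decide +kernel))
def xV : List (List Nat) := [[32],[34],[36],[38]]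
noncomputable abbrev xz : List Nat := substW xS [16]

end CfsgH7.Co1.Xs
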