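import Cfsg.Agent.H7.Xs

/-! The extraspecial centraliser setting. -/

set_option autoImplicit false

universe u

namespace CfsgH7

open Subgroup Cfsg

def Setg {G : Type u} [Group G] (z : G) (m : Nat) (X : Type) [Group X] : Prop :=
  orderOf z = 2 ∧ ∃ (Q : Subgroup (centralizer ({z} : Set G))) (_ : Q.Normal),
    generalizedFittingSubgroup (centralizer ({z} : Set G)) = Q ∧ IsExtraspecial 2 Q ∧ Nat.card Q = 2 ^ m ∧
    Nonempty ((centralizer ({z} : Set G)) ⧸ Q ≃* X) ∧ ∃ g : G, (∃ hq : g * z * g⁻¹ ∈ centralizer ({z} : Set G),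
      (⟨g * z * g⁻¹, hq⟩ : centralizer ({z} : Set G)) ∈ Q) ∧ g * z * g⁻¹ ≠ z

theorem wprod_rinv' {G : Type u} [Group G] {g : Nat → G} {a b : List Nat} (h : wprod g (rinv a b) ≠ 1) :
    wprod g a ≠ wprod g b := fun e => h (by rw [wprod_rinv, e, inv_mul_cancel])

theorem XsC.setg {G : Type u} [Group G] {Q : Subgroup G} {z a c : G} {m k N : Nat} {R : List (List Nat)}
    (h : XsC Q (centralizer {z}) m k R N) (hz : orderOf z = 2) (ha : a ∈ Q) (e : c * z = a * c) (hn : a ≠ z)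
    {X : Type} [Group X] (f : ∀ (Y : Type u) [Group Y], Mdl Y k R N → Nonempty (Y ≃* X)) : Setg z m X := by
  obtain ⟨n, a0, -, -, a1, a2, a3, -, a4⟩ := h
  obtain rfl : a = c * z * c⁻¹ := by rw [e, mul_inv_cancel_right]
  exact ⟨hz, _, n, a4, a2, a1, f _ a3, c, ⟨a0 ha, ha⟩, hn⟩

end CfsgH7
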