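import Cfsg.Agent.H7.Xs.Co1R
import Cfsg.Agent.H7.Xs.Co1S
import Cfsg.Agent.H7.Xs.Set
import Cfsg.Agent.H7.Li.O82u

set_option autoImplicit false
set_option maxRecDepth 100000

namespace CfsgH7.Co1.Xs

set_option Elab.async false

open CfsgH7.Co1

theorem xz2 : orderOf (wprod g2 xz) = 2 := M2.ordN _ (by decide +kernel)
theorem xX : XsC (genW g2 xS) (Subgroup.centralizer {wprod g2 xz}) 9 4 O82.Rf 174182400 :=
  M2.xs (V := xV) O82.pr O82.mdl0 O82.simple xP [16] xD 0 7 (by norm_num [xS]) [[0,4,14],[0,2,4,8,12],[6,8,14],[2,4,8,10,14,16],[0,6,8,10,16],[2,4,14],[2,6,10,12,14,16],[0,2,4,6,8,14],[16],[6,10],[2,8,10,14,16],[6,12,14,16],[2,4,12,14,16],[0,4,12,16],[0,2,4,8,10,12,16],[0,2,6,8,12,14],[2,14],[16],[0],[2,8,10,14,16],[0,2,4,6,8,12,14],[0,2,8,12,14,16],[0,2,6,8,10,12],[0,2,6,12],[12,16],[14,16],[16],[0,4,8,16],[2,6,10,12,16],[4,6,8,14,16],[0,12,14,16],[6,14,16],[0,4,10,12],[4,6,12,14],[0,8,12,14,16],[16]]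 [[],[0,4,8,10,14],[],[16],[2,12,16],[0,8,10,16],[0,2,6,10],[0,2,4,6,8,10,12,14,16],[0,4,10,12,14,16],[2,4,6,14,16],[4,8,10,16],[0,2,12,16],[],[0,4,6,8,10,12],[2,4,8,12,14],[],[2,4,6,14,16],[0,2,6,10],[16],[0,2,4,6,8,10,14,16],[0,2,12,16],[2,4,8,12,14],[6,12],[],[0,2,6,10],[0,2,4,12,16],[16],[16]]
    (by decide +kernel) (by decide +kernel) (by decide +kernel) (cen_one.symm.trans xC)
theorem ha : wprod g2 [40] * wprod g2 xz = wprod g2 (substW xS [14]) * wprod g2 [40] := by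
  rw [← wprod_app, ← wprod_app]; exact M2.eq (by decide +kernel)
theorem hb : wprod g2 (rinv (substW xS [14]) xz) ≠ 1 := M2.neP (by decide +kernel)
theorem main : ∃ z : Cfsg.Spor.Co1, Setg z 9 (Cfsg.Omega (ZMod 2) (Cfsg.quadFormPlus 4 (ZMod 2))) :=
  ⟨_, xX.setg xz2 (substW_mem_genW _ _ _) ha (wprod_rinv' hb) fun _ _ h => Mdl.iso2 O82.pr O82.pr O82.mdl0 h O82.mdlO⟩

end CfsgH7.Co1.Xs
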