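import Cfsg.Agent.H7.Cls
import Cfsg.Agent.H7.Mx5
import Cfsg.Agent.H7.Li.Sm
import Cfsg.Agent.H7.Mu.Math
import Cfsg.Agent.S0242
import Cfsg.Prelude.Def_MonsterType

/-! The large extraspecial subgroup of M24. -/

set_option autoImplicit false
set_option maxRecDepth 100000

universe u

namespace CfsgH7

open Subgroup Cfsg

section
variable {G : Type*} [Group G]

theorem inv_of_fpf [Finite G] {K : Subgroup G} {t : G} (hn : t ∈ normalizer (K : Set G)) (h2 : t * t = 1)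
    (h : ∀ x ∈ K, t * x = x * t → x = 1) : ∀ x ∈ K, t * x * t⁻¹ = x⁻¹ := by
  let φ : K →* K := (K.normalizerMonoidHom ⟨t, hn⟩).toMonoidHom
  have e : ∀ x : K, (φ x : G) = t * x * t⁻¹ := fun x => rfl
  have h3 : MonoidHom.FixedPointFree φ := fun x hx =>
    Subtype.ext (h x x.2 (mul_inv_eq_iff_eq_mul.1 ((e x).symm.trans (congrArg Subtype.val hx))))
  have h4 : Function.Involutive φ := fun x => Subtype.ext (by
    rw [e, e]
    calc t * (t * x * t⁻¹) * t⁻¹ = (t * t) * x * (t * t)⁻¹ := by group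
      _ = x := by rw [h2]; group)
  intro x hx
  exact (e ⟨x, hx⟩).symm.trans (congrArg Subtype.val (congrFun (h3.coe_eq_inv_of_involutive h4) ⟨x, hx⟩))

theorem large_of [Finite G] {Q : Subgroup G} {z c a b q : G} (hx : IsExtraspecial 2 Q) (hz : orderOf z = 2) (hzQ : z ∈ Q)
    (hC : centralizer (Q : Set G) = zpowers z) (hN : centralizer {z} ≤ normalizer (Q : Set G)) (ha : a ∈ Q) (hb : b ∈ Q)
    (hq : q ∈ Q) (e1 : c * z = a * c) (e2 : z * c = c * b) (e3 : q * a = a * z * q) : IsLargeExtraspecial Q := by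
  have hp : IsPGroup 2 Q := hx.1.1
  have c1 : (center Q).map Q.subtype = zpowers z := by
    ext x
    constructor
    · rintro ⟨y, hy, rfl⟩
      rw [← hC]
      exact fun w hw => congrArg Subtype.val (mem_center_iff.1 hy ⟨w, hw⟩)
    · intro h
      exact ⟨⟨x, zpowers_le.2 hzQ h⟩, mem_center_iff.2 fun w => Subtype.ext ((hC ▸ h : x ∈ centralizer (Q : Set G)) w w.2), rfl⟩
  refine ⟨hx, hC.trans c1.symm, ?_, fun K hK hQ => ?_⟩
  · rw [c1, zpowers_eq_closure, centralizer_closure]; exact hN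
  have z2 : z * z = 1 := by rw [← pow_two, ← hz, pow_orderOf_eq_one]
  have key : ∀ x ∈ K, ∀ d : G, d⁻¹ * x * d ∈ Q → x = 1 := fun x hx d h => by
    obtain ⟨r, hr⟩ := hp ⟨_, h⟩
    have h1 : (d⁻¹ * x * d) ^ 2 ^ r = 1 := congrArg Subtype.val hr
    have h2 : x ^ 2 ^ r = 1 := by
      have : d⁻¹ * x * d = d⁻¹ * x * d⁻¹⁻¹ := by rw [inv_inv]
      rw [this, conj_pow] at h1
      exact conj_eq_one_iff.1 h1
    exact orderOf_eq_one_iff.1 (Nat.eq_one_of_dvd_coprimes (Nat.Coprime.pow_right r (Nat.coprime_two_right.2 hK))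
      (K.orderOf_dvd_natCard hx) (orderOf_dvd_of_pow_eq_one h2))
  have s1 : ∀ x ∈ K, z * x = x * z → x = 1 := fun x hx h => by
    have hn := hN (mem_centralizer_singleton_iff.2 h.symm)
    refine key x hx 1 ?_
    have : x ∈ centralizer (Q : Set G) := fun y hy => by
      have k1 : x * y * x⁻¹ * y⁻¹ ∈ Q := mul_mem ((mem_normalizer_iff.1 hn y).1 hy) (inv_mem hy)
      have k2 : x * (y * x⁻¹ * y⁻¹) ∈ K := mul_mem hx ((mem_normalizer_iff.1 (hQ hy) _).1 (inv_mem hx))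
      have := key _ k2 1 (by simpa [mul_assoc] using k1)
      calc y * x = (x * (y * x⁻¹ * y⁻¹)) * y * x := by rw [this, one_mul]
        _ = x * y := by group
    rw [hC] at this
    simpa using zpowers_le.2 hzQ this
  have i1 := inv_of_fpf (hQ hzQ) z2 s1
  have ea : a = c * z * c⁻¹ := by rw [e1, mul_inv_cancel_right]
  have eb : b = c⁻¹ * z * c := by rw [mul_assoc, e2, inv_mul_cancel_left]
  have s2 : ∀ x ∈ K, a * x = x * a → x = 1 := fun x hx h => by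
    have h1 : c⁻¹ * x * c ∈ centralizer {z} := mem_centralizer_singleton_iff.2 (by
      calc c⁻¹ * x * c * z = c⁻¹ * (x * a) * c := by rw [ea]; group
        _ = z * (c⁻¹ * x * c) := by rw [← h, ea]; group)
    have k1 := mul_mem ((mem_normalizer_iff.1 (hN h1) b).1 hb) (inv_mem hb)
    have k2 : x * x = 1 := key _ (mul_mem hx hx) c (by
      have k3 : x = z * x⁻¹ * z⁻¹ := by rw [i1 _ (inv_mem hx), inv_inv]
      have : c⁻¹ * (x * x) * c = c⁻¹ * x * c * b * (c⁻¹ * x * c)⁻¹ * b⁻¹ := by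
        calc c⁻¹ * (x * x) * c = c⁻¹ * (x * (z * x⁻¹ * z⁻¹)) * c := by rw [← k3]
          _ = _ := by rw [eb]; group
      exact this ▸ k1)
    exact orderOf_eq_one_iff.1 (Nat.eq_one_of_dvd_coprimes (Nat.coprime_two_right.2 hK)
      (K.orderOf_dvd_natCard hx) (orderOf_dvd_of_pow_eq_one (by rw [pow_two, k2])))
  have a2 : a * a = 1 := by
    calc a * a = c * (z * z) * c⁻¹ := by rw [ea]; group
      _ = 1 := by rw [z2]; group
  have i2 := inv_of_fpf (hQ ha) a2 s2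
  refine eq_bot_iff.2 fun x hx => ?_
  have h1 : q⁻¹ * x * q⁻¹⁻¹ ∈ K := (mem_normalizer_iff.1 (hQ (inv_mem hq)) x).1 hx
  have h2 : a * z * x * (a * z)⁻¹ = x := by
    calc a * z * x * (a * z)⁻¹ = a * (z * x * z⁻¹) * a⁻¹ := by group
      _ = x := by rw [i1 x hx, i2 _ (inv_mem hx), inv_inv]
  have e4 : a = q⁻¹ * (a * z) * q := by rw [mul_assoc, ← e3, inv_mul_cancel_left]
  have := s2 _ h1 (by
    calc a * (q⁻¹ * x * q⁻¹⁻¹) = q⁻¹ * (a * z) * q * (q⁻¹ * x * q⁻¹⁻¹) := by rw [← e4]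
      _ = q⁻¹ * (a * z * x * (a * z)⁻¹) * q⁻¹⁻¹ * (q⁻¹ * (a * z) * q) := by group
      _ = _ := by rw [h2, ← e4])
  exact conj_eq_one_iff.1 this

theorem elab_closure {T : Set G} (h1 : ∀ x ∈ T, ∀ y ∈ T, x * y = y * x) (h2 : ∀ x ∈ T, x ^ 2 = 1) :
    IsElementaryAbelian 2 (closure T) := by
  have hc := isMulCommutative_closure h1
  refine ⟨hc, fun a ha => ?_⟩
  induction ha using closure_induction with
  | mem x hx => exact h2 x hx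
  | one => exact one_pow _
  | mul x y hx hy a b => rw [Commute.mul_pow (setLike_mul_comm hx hy), a, b, one_mul]
  | inv x _ a => rw [inv_pow, a, inv_one]

end

end CfsgH7

namespace CfsgH7.Gol.Lx

open Cfsg Subgroup

noncomputable abbrev l : List Net := lP
def bs : List Nat := [4,5,3,2,1,0,23]
theorem MG : Md px 24 gm l 3 244823040 bs := ⟨RP, I.inj, inferInstance, card24, gen24, base7, b7⟩

theorem sl3 : Mdl (Matrix.SpecialLinearGroup (Fin 3) (ZMod 2)) 2 L32.Rf 168 := (L32.mdlF (by simp)).unq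
  ((one_mul _).symm.trans ((Cfsg.Agent.S0242.result (F := ZMod 2) (q := 2) (ZMod.card 2) 3 (by norm_num)).trans
    (by decide +kernel))) (by norm_num)

def Con {G : Type u} [Group G] (z : G) : Prop := ∀ Q : Subgroup G,
  Q = (pCore 2 (centralizer ({z} : Set G))).map (centralizer ({z} : Set G)).subtype →
  IsExtraspecial 2 Q ∧ Nat.card Q = 2 ^ 7 ∧ (∃ E : Subgroup G, E ≤ Q ∧ IsElementaryAbelian 2 E ∧ Nat.card E = 2 ^ 4) ∧
    IsLargeExtraspecial Q ∧ ∃ K : Subgroup G, K ≤ centralizer ({z} : Set G) ∧ Q ⊓ K = ⊥ ∧ Q ⊔ K = centralizer ({z} : Set G) ∧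
      Nonempty (K ≃* Matrix.SpecialLinearGroup (Fin 3) (ZMod 2))

section

variable {G : Type u} [Group G] {Ω : Type*} [MulAction G Ω] {pt : Nat → Ω} {g : Nat → G} (M : Md pt 24 g l 3 244823040 bs)
include M

def xS : List (List Nat) := [[4,0,5,0,4,1,1,1,4,0,4,0,5,1,2,5],[1,4,1,4,1,1,4,0,2,1,1,2,5,0,2,4,4],[4,2,1,5,1,1,4,0,5,5,1,5,1,2,4,1],[5,5,0,5,0,0,4,1,5,5,1,2,0,4],[4,2,0,0,4,4,0,2,1,4,1,5,1,2,4,0,5],[0,0,2,1,5,1,5,1,1,4,4,1,4,4,0],[0,4,0,4,0,4]]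
theorem xP : Pc (fun j => wprod g (wordAt xS j)) 2 xS.length :=
  M.pc [[12],[12],[12],[],[],[],[]] [[], [[2,12]], [[4],[4]], [[6],[6,12],[6,12]], [[8],[8],[8,12],[8]], [[10,12],[10],[10],[10],[10]], [[12],[12],[12],[12],[12],[12]]] (by decide +kernel) (M.ge xS [⟨0, [[0],[2],[8]], [0,1,2], 8⟩,
  ⟨3, [[12],[2,4],[2,6],[0,2,8,10]], [0,1,2,3], 16⟩] 5 (by decide +kernel))
def xV : List (List Nat) := [[0,5,0,2,1,4,0,0,2,1,4,0,5,5,0,2],[0,5,0,4,4,0,0,0,0,0,2,4,4,0,2,4,4]]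
noncomputable abbrev xz : List Nat := substW xS [12]
def xaC : List Lvl := [⟨10, [[0],[2]], [0,1,0,0,1,0,0,1,0,1], 24⟩,
  ⟨12, [[0,0,0,4],[0,0,2,5]], [0,0,1,0,0,1,0,0,0,0,0,1], 23⟩,
  ⟨9, [[0,5,1,2,4],[0,2,4,1,2,5]], [0,0,1,0,1,0,0,1,1], 22⟩,
  ⟨8, [[0,0,0,5,5,0,4,0,5],[0,2,4,1,5,5,0,4,1]], [0,1,0,1,0,0,1], 21⟩,
  ⟨11, [[2,1,4,0,5,1,5,0,2,1,5],[4,2,0,0,4,1,1,1,1,1,4]], [0,1,0,1,0,1,0,0], 20⟩,
  ⟨20, [[1,4,0,5,0,4,1,1,4,1,1,1,5]], [0,0], 3⟩,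
  ⟨19, [[4,0,5,1,4,4,1,5,1,4,1,2,5,5],[1,4,1,1,2,1,5,1,5,0,0,5,1,1,2],[4,1,1,4,0,0,2,1,5,1,1,1,4,1,4],[0,2,0,0,0,4,1,4,1,5,1,5,1,2,0,5]], [0,1,2,3], 16⟩]
def xaM : List (List Nat) := [[],
  [0xffebff],
  [],
  [0xffe8ff],
  [],
  [0xeb60ff],
  []]
def xaZ : List Nat := [0xffffff]
theorem xaL : LvOk G pt 24 [] (mkLV xaC xaM) := M.lvOk xaC 5 xaM (by decide +kernel) (by decide +kernel)
noncomputable def xaT : Bt := (.br 0 [[4],[6],[8],[16]] [0,1,2,3] (Bt.ofL [(10, [], (.step 0 0 [] (.br 0 [[0],[2],[12,10]] [0,0,1,2,0,0,0] (Bt.ofL [(9, [], (.step 0 0 [] (.br 0 [[12,10],[2,0,0],[0,0,2,0]] [0,1,1,2,1] (Bt.ofL [(11, [], (.step 0 0 [] (.br 0 [[14,10],[2,1,2,0,0,0],[2,1,1,1,2,0]] [0,1,2] (Bt.ofL [(19, [], (.leaf 0))]))))]))))]))))]))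
theorem xC : Subgroup.centralizer {z | ∃ w ∈ [xz], wprod g w = z} = genW g (xV ++ xS) :=
  M.cen (xaL M) _ [[0]] _ 1 5 xaZ xaT (by decide +kernel) (by decide +kernel)
def xbC : List Lvl := [⟨4, [[0],[2]], [0,1,0,1,0,0,1,0], 24⟩,
  ⟨3, [[0,0,4],[0,4,1],[2,1,5]], [0,1,2,0,2,2], 23⟩,
  ⟨12, [[0,4,0,4],[1,2,4,1,2,5]], [0,1,0,0,1,0,1,1,0], 22⟩,
  ⟨15, [[1,5,0,4,0,0,0,5],[0,0,0,5,1,4,4,1,5],[0,2,1,4,4,1,1,2,5]], [0,1,0,1,0,0,2,0], 21⟩,
  ⟨9, [[1,4,1,1,1,4,0,0,5],[0,0,2,5,0,5,5,0,4,1,5,0],[1,2,1,1,2,4,4,1,1,4,4,0]], [0,1,0,1,0,2,0], 20⟩,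
  ⟨10, [[1,5,0,0,4,1,4,0,0,5,1,4,4],[0,4,1,4,1,4,4,0,0,5,0,5,1,5],[0,5,0,2,1,1,5,5,1,5,1,5,5,0],[1,1,1,5,1,4,0,4,0,5,0,0,0,5]], [0,1,2,3], 16⟩,
  ⟨18, [[0,2,1,1,5,1,2,1,5,1,4,4,1,1,2]], [0,0], 3⟩]
def xbM : List (List Nat) := [[],
  [],
  [],
  [],
  [],
  [],
  []]
def xbZ : List Nat := [0xffffff]
theorem xbL : LvOk G pt 24 [] (mkLV xbC xbM) := M.lvOk xbC 5 xbM (by decide +kernel) (by decide +kernel)
noncomputable def xbT : Bt := (.br 0 [[0]] [0] (Bt.ofL [(4, [], (.step 0 0 [] (.step 1 4 [] (.step 2 5 [] (.step 3 6 [] (.step 2 0 [] (.step 2 1 [] (.leaf 0))))))))]))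
theorem xD : Subgroup.centralizer {z | ∃ w ∈ xS, wprod g w = z} = genW g [xz] :=
  M.cen (xbL M) _ [[6],[8],[10],[12],[0],[2],[4]] _ 4 5 xbZ xbT (by decide +kernel) (by decide +kernel)
theorem xz2 : orderOf (wprod g xz) = 2 := M.ordN _ (by decide +kernel)
theorem xX : XsC (genW g xS) (Subgroup.centralizer {wprod g xz}) 7 2 L32.Rf 168 :=
  M.xs (V := xV) L32.pr L32.mdl0 L32.simple (xP M) [12] (xD M) 0 7 (by norm_num [xS]) [[4,12],[0,2,6,10,12],[2,4,6,8,12],[6,8,12],[6,8,10],[6,10,12],[12],[0,6,12],[4,12],[2,12],[6],[6,8,12],[10],[12]] [[],[],[],[]]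
    (by decide +kernel) (by decide +kernel) (by decide +kernel) (cen_one.symm.trans (xC M))
theorem xH : Mdl (genW g xV) 2 L32.Rf 168 := M.genMdl (V := xV) L32.pr L32.mdl0 L32.simple (by decide +kernel) 0 (by decide +kernel)
def eS : List (List Nat) := [[5,1,5,0,2,1,1,4,4,1,5,1,1,2,1,4],[0,0,5,2,1,1,4,1,1,5,1,4,0,4,0],[5,1,1,1,5,0,5,1,5,5,1,1,2,5],[0,4,0,4,0,4]]
theorem eP : Pc (fun j => wprod g (wordAt eS j)) 2 eS.length :=
  M.pc [[],[],[],[]] [[], [[2]], [[4],[4]], [[6],[6],[6]]] (by decide +kernel) (M.ge eS [⟨0, [[0],[2]], [0,1], 4⟩,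
  ⟨3, [[6],[0,4]], [0,1], 4⟩] 5 (by decide +kernel))
theorem eL : genW g eS ≤ genW g xS := M.le [[0,2,4,12],[2,4,10],[0,2,6],[12]] (by decide +kernel)
def cc : List Nat := [5,0,0,4,2,0,0,0,0,2,1,4,4,1,5,0,5]
theorem ha : wprod g cc * wprod g xz = wprod g (substW xS [10]) * wprod g cc := by
  rw [← wprod_app, ← wprod_app]; exact M.eq (by decide +kernel)
theorem hb : wprod g xz * wprod g cc = wprod g cc * wprod g (substW xS [6]) := by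
  rw [← wprod_app, ← wprod_app]; exact M.eq (by decide +kernel)
theorem hq : wprod g (substW xS [0]) * wprod g (substW xS [10]) = wprod g (substW xS [10]) * wprod g xz * wprod g (substW xS [0]) := by
  rw [← wprod_app, ← wprod_app, ← wprod_app]; exact M.eq (by decide +kernel)
def sS : List (List Nat) := [[1,5,5,0,5,0,0,0,0,0,2,1,5,1,2,5,1],[0,4,4,0,4,2,0,0,2,0,0,4,0,0,2,1],[1,4,2,0,5,1,4,4,0,5,0,4,0,5,0,4],[4,4,1,4,0,4,0,4,0,0,4,4,1,5],[0,0,5,1,5,2,1,1,5,5,0,4,1,2,5,1,4],[5,1,5,5,0,0,0,2,1,4,0,2,5,1,5],[1,1,5,1,5,5,1,1,1,4,1,5,5,0],[4,0,4,1,2,1,4,0,4,1,4,1,1,1,5],[0,4,0,5,0,5,2,5,0,4,1,1,4,0,5,5],[2,0,0,0,4,2,0,0,0,0,5,1,5,1,1,1,1]]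
theorem sP : Pc (fun j => wprod g (wordAt sS j)) 2 sS.length :=
  M.pc [[18],[],[18],[12],[],[18],[],[],[],[]] [[], [[2]], [[4],[4,8,10]], [[6,8,16,18],[6,12],[6,10,16,18]], [[8,18],[8,14,18],[8,18],[8,14,18]], [[10,18],[10,14,18],[10,18],[10,16,18],[10,18]], [[12,14,18],[12],[12,16],[12],[12],[12]], [[14],[14],[14,18],[14],[14],[14],[14]], [[16,18],[16],[16],[16],[16],[16],[16],[16]], [[18],[18],[18],[18],[18],[18],[18],[18],[18]]] (by decide +kernel) (M.ge sS [⟨0, [[0],[2],[4]], [0,1,2,0,0], 16⟩,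
  ⟨1, [[14],[1,6],[2,11]], [0,1,2], 8⟩,
  ⟨2, [[0,6,8],[0,2,14,16]], [0,1,0,0], 8⟩] 5 (by decide +kernel))
def sR : List (List Nat) := [[0,4,0,4,0,4],[2,1,4,0,2,0,0,0,0,0,2,5,0,4,1,5,0]]
noncomputable def sT : Ct := (.cons (.cons (.cons (.cons (.cons (.cons (.cons (.cons (.cons (.cons .pw (.cons (.rep [0,0,5,0,0,0,5,1,4,0,2,0,5,1,4,1] 0) .nil)) (.cons (.one [[0]] [[]] (.rep [5,5,0,5,0,2,0,0,0,0,0,4,0,5,1,2] 1)) .nil)) (.cons (.cons (.one [[4]] [[]] (.rep [0,2,5,1,1,1,4,0,0,2,5,0] 0)) (.cons (.one [[4]] [[]] (.rep [5,0,4,0,0,4,1,2,1,1,5,0,4,4] 0)) .nil)) .nil)) (.cons (.one [[0]] [[18]] (.one [[4]] [[]] (.cons (.rep [1,4,2,1,4,1,4,0,0,5,1,2,5,0,4] 0) (.cons (.rep [4,4,1,4,0,0,5,1,5,2,0,0,0,0] 1) .nil)))) .nil)) (.cons (.cons (.one [[2]] [[18]] (.one [[6]] [[18]] (.one [[8]] [[]] (.kill 9 1 [])))) (.cons (.one [[2]] [[18]] (.one [[6]] [[18]] (.one [[8]] [[]] (.kill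 9 1 [])))) .nil)) .nil)) (.cons (.cons (.cons (.one [[6]] [[18]] (.cons (.one [[10]] [[]] (.rep [1,4,0,4,1,5,1,5,5,2,1,1,2,4,1] 0)) (.cons (.one [[10]] [[]] (.rep [0,0,5,0,5,5,0,0,4,0,0,2,5,1,4] 1)) .nil))) (.cons (.one [[6]] [[18]] (.one [[4]] [[18]] (.one [[10]] [[]] (.rep [4,0,2,1,5,1,5,0,0,2,4,0,5,0,0,2,5] 0)))) .nil)) (.cons (.cons (.one [[6]] [[16]] (.cons (.one [[10]] [[]] (.rep [5,5,1,1,1,5,1,4,0,2,1,1,5,0,4] 1)) (.cons (.one [[10]] [[]] (.rep [4,0,0,4,0,5,1,2,1,1,4,1,1,5,1,2,4] 0)) .nil))) (.cons (.one [[6]] [[16]] (.one [[4]] [[]] (.one [[10]] [[]] (.rep [4,1,5,5,1,4,0,0,4,0,4,4,1,1,2,4,1] 1)))) .nil)) .nil)) .nil)) (.cons (.one [[0]] [[16]] (.one [[4]] [[16,18]] (.one [[2]] [[]] (.kill 6 1 [])))) .nil)) (.cons (.cons (.one [[2]] [[10,14]] (.one [[6]] [[16]] (.cons (.cons (.one [[12]] [[]] (.one [[14]] [[]] (.kill 9 1 []))) (.cons (.one [[12]] [[]] (.one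 [[14]] [[]] (.rep [4,2,0,0,0,5,1,5,5,2,1,4,0,4,0] 1))) .nil)) (.cons (.one [[0]] [[18]] (.one [[12]] [[]] (.kill 8 1 [18]))) .nil)))) (.cons (.one [[2]] [[10,12,16]] (.one [[6]] [[18]] (.kill 5 1 [12,18]))) .nil)) .nil)) (.cons (.cons (.cons (.one [[4]] [[10]] (.cons (.one [[6]] [[]] (.one [[10]] [[18]] (.cons (.cons (.rep [5,0,0,0,4,1,1,4,4,2,1,1,2,4,0] 1) (.cons (.rep [5,0,2,1,4,0,4,0,0,4,0,4,1,5,0] 0) .nil)) (.cons (.one [[0]] [[]] (.rep [1,1,1,2,0,5,5,1,4,1,1,2,5,0,5,5,1] 1)) .nil)))) (.cons (.one [[6]] [[16,18]] (.one [[10]] [[18]] (.kill 7 1 []))) .nil))) (.cons (.one [[4]] [[14,18]] (.cons (.one [[6]] [[]] (.one [[10]] [[16]] (.cons (.cons (.rep [4,4,1,1,5,0,4,1,4,1,2,1,5,1] 1) (.cons (.rep [4,1,1,2,1,1,4,1,1,1,4,0,5,5,1,2,5] 0) .nil)) (.cons (.one [[0,4,10]] [[]] (.rep [1,2,0,5,1,5,1,1,1,4,0,0,4,4] 0)) .nil)))) (.cons (.one [[6]] [[16,18]] (.one [[10]]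 [[16]] (.kill 7 1 [16,18]))) .nil))) .nil)) (.cons (.cons (.one [[4]] [[10]] (.kill 4 1 [10,18])) (.cons (.one [[4]] [[14,18]] (.kill 4 1 [16])) .nil)) .nil)) .nil)) (.cons (.cons (.cons (.cons (.one [[6]] [[16,18]] (.cons (.cons (.one [[12]] [[18]] (.cons (.one [[16]] [[]] (.kill 9 1 [])) (.cons (.one [[16]] [[]] (.rep [2,0,4,0,5,5,2,0,5,0,5,0,4,0,2,5] 1)) .nil))) (.cons (.one [[12]] [[18]] (.kill 7 1 [])) .nil)) (.cons (.cons (.one [[12]] [[18]] (.cons (.one [[16]] [[]] (.kill 9 1 [])) (.cons (.one [[16]] [[]] (.rep [1,1,1,5,1,1,4,4,0,0,2,4,0,4,0] 0)) .nil))) (.cons (.one [[12]] [[18]] (.kill 7 1 [])) .nil)) .nil))) (.cons (.one [[6]] [[14,16]] (.kill 4 1 [12,14,16,18])) .nil)) (.cons (.cons (.one [[6]] [[10,16]] (.cons (.cons (.one [[12]] [[16]] (.cons (.one [[16]] [[]] (.rep [2,1,5,0,5,5,1,5,0,5,1,2,4,0,2,5] 1)) (.cons (.one [[16]] [[]] (.kill 9 1 [])) .nil)))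 (.cons (.one [[12]] [[16]] (.kill 7 1 [16])) .nil)) (.cons (.cons (.one [[12]] [[16]] (.cons (.one [[16]] [[]] (.kill 9 1 [])) (.cons (.one [[16]] [[]] (.rep [0,4,0,4,2,0,4,4,2,0,2,4,4,1,1,4,4] 0)) .nil))) (.cons (.one [[12]] [[16]] (.kill 7 1 [16,18])) .nil)) .nil))) (.cons (.one [[6]] [[10,14]] (.kill 4 1 [10,12,14,16])) .nil)) .nil)) (.cons (.cons (.cons (.one [[6]] [[12,14,16]] (.one [[4,6]] [[12,16]] (.cons (.one [[12]] [[18]] (.cons (.one [[16]] [[]] (.kill 9 1 [])) (.cons (.one [[16]] [[]] (.rep [1,5,0,0,5,5,0,0,5,5,0,2,5,1,2] 0)) .nil))) (.cons (.one [[12]] [[18]] (.kill 7 1 [])) .nil)))) (.cons (.one [[6]] [[12,16,18]] (.kill 4 1 [16])) .nil)) (.cons (.cons (.one [[6]] [[10,12,14]] (.kill 4 1 [10])) (.cons (.one [[6]] [[10,12,16]] (.one [[4,6]] [[12,16]] (.cons (.one [[12]] [[16]] (.cons (.one [[16]] [[]] (.rep [] 1)) (.cons (.one [[16]] [[]] (.kill 9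 1 [])) .nil))) (.cons (.one [[12]] [[16]] (.kill 7 1 [16])) .nil)))) .nil)) .nil)) .nil)) .nil))
theorem sK (y : G) (hy : y ^ 2 = 1) (h1 : y ≠ 1) : ∃ r ∈ sR, IsConj y (wprod g r) :=
  M.cl1 (sP M) (by norm_num) (by decide) _ sT (by decide +kernel) y hy h1
def zz : List Nat := [2,1,4,0,2,0,0,0,0,0,2,5,0,4,1,5,0]

theorem eE : IsElementaryAbelian 2 (genW g eS) := by
  have h : lall (fun a => band (fixesP l (powA a 2 []) bs) (lall (fun b => fixesP l (rinv (app a b) (app b a)) bs) eS)) eS = true := by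
    decide +kernel
  simp only [lall_iff, band_iff] at h
  refine elab_closure ?_ ?_
  · rintro _ ⟨a, ha, rfl⟩ _ ⟨b, hb, rfl⟩
    rw [← wprod_app, ← wprod_app]; exact M.eq ((h a ha).2 b hb)
  · rintro _ ⟨a, ha, rfl⟩
    exact M.pow (h a ha).1

theorem con : Con (wprod g xz) := by
  have := M.fin
  have hC := cen_one.symm.trans (xC M)
  have h1 : genW g xV ≤ centralizer {wprod g xz} := hC ▸ genW_le.2 fun _ h => mem_genW _ (List.mem_append_left _ h)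
  have h2 : centralizer {wprod g xz} ≤ genW g xS ⊔ genW g xV :=
    hC ▸ genW_le.2 fun _ h => (List.mem_append.1 h).elim (fun h => mem_sup_right (mem_genW _ h)) fun h => mem_sup_left (mem_genW _ h)
  have h := (xX M).compl (H := genW _ xV) h1 (xH M).2.1 h2
  obtain ⟨a, a0, a1, a2, -, -, -, a3, -⟩ := xX M
  intro Q hQ
  rw [a3, subgroupOf_map_subtype, inf_of_le_left a0] at hQ
  subst hQ
  refine ⟨a2, a1, ⟨_, eL M, eE M, Tl.genW g eS ▸ (eP M).card two_pos⟩, large_of a2 (xz2 M) (substW_mem_genW g xS _)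
    (by rw [← genW_single, ← xD M, genW, centralizer_closure]) ((normal_subgroupOf_iff_le_normalizer a0).1 a)
    (substW_mem_genW g xS _) (substW_mem_genW g xS _) (substW_mem_genW g xS _) (ha M) (hb M) (hq M),
    _, h1, eq_bot_iff.2 fun x hx => ?_, le_antisymm (sup_le a0 h1) h2, Mdl.iso2 L32.pr L32.pr L32.mdl0 (xH M) sl3⟩
  have : (⟨x, a0 hx.1⟩ : centralizer {wprod g xz}) = 1 := mem_bot.1 (h.disjoint.le_bot ⟨hx.1, hx.2⟩)
  exact congrArg Subtype.val this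

end

theorem main (z : M24) (hz : orderOf z = 2) (p : GolayPt) (hp : z • p = p) : Con z := by
  obtain ⟨r, hr, e⟩ := sK MG z (hz ▸ pow_orderOf_eq_one z) (by rintro rfl; simp at hz)
  rw [show sR = [xz, zz] from by decide +kernel] at hr
  obtain ⟨c, hc⟩ := isConj_iff.1 e
  simp only [List.mem_cons, List.not_mem_nil, or_false] at hr
  rcases hr with rfl | rfl
  · have := @con _ _ _ (_) _ _ (MG.congr (MulAut.conj c⁻¹))
    rw [show wprod (fun j => (MulAut.conj c⁻¹) (gm j)) xz = z from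
      (map_wprod (MulAut.conj c⁻¹).toMonoidHom gm xz).symm.trans (by rw [← hc]; simp [mul_assoc])] at this
    exact this
  · exfalso
    have h1 : wprod gm zz • px (ix (c • p)) = px (ix (c • p)) := by
      rw [I.px_ix, ← hc, mul_smul, mul_smul, inv_smul_smul, hp]
    have h2 : ∀ i < 24, mapsP l zz i i = false := by decide +kernel
    exact RP.not_maps I.inj (I.lt _) (I.lt _) (h2 _ (I.lt _)) h1

end CfsgH7.Gol.Lx
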