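import Cfsg.Agent.H7.Xs
import Cfsg.Agent.H7.Mx5
import Cfsg.Agent.H7.Cls

/-! Sections of centralisers. -/

set_option autoImplicit false

universe u

namespace CfsgH7

open Subgroup

section

variable {G : Type u} [Group G] {Ω : Type*} [MulAction G Ω]
variable {pt : Nat → Ω} {n : Nat} {g : Nat → G} {l : List Net} {k N : Nat} {bs : List Nat}
variable {N' : Nat} {R : List (List Nat)} {H : Type} [Group H]

theorem cen_normal (x : G) : ((zpowers x).subgroupOf (centralizer {x})).Normal :=
  (normal_subgroupOf_iff_le_normalizer (zpowers_le.2 (mem_centralizer_singleton_iff.2 rfl))).2 fun c hc => by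
    rw [mem_normalizer_iff]
    have key : ∀ y ∈ zpowers x, c * y = y * c := by
      rintro _ ⟨i, rfl⟩
      exact (Commute.zpow_right (mem_centralizer_singleton_iff.1 hc) i)
    refine fun y => ⟨fun h => by rw [key y h, mul_inv_cancel_right]; exact h, fun h => ?_⟩
    have := key _ h
    rw [inv_mul_cancel_right] at this
    rwa [mul_left_cancel this] at h

/-- The quotient of a centraliser by the cyclic group. -/
theorem Md.cenQuot (M : Md pt n g l k N bs) {V : List (List Nat)} (hP : Pr.{u} V.length R N') (hM : Mdl H V.length R N')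
    (hs : IsSimpleGroup H) {z : List Nat} (hC : centralizer {x | ∃ w ∈ [z], wprod g w = x} = genW g (V ++ [z])) {es : List Nat}
    (h : CfsgH7.relZ l bs z (R.map (substW V)) es = true)
    (hn : wprod g (wordAt V 1) * wprod g (wordAt V 0) ≠ wprod g (wordAt V 0) * wprod g (wordAt V 1)) :
    haveI := cen_normal (wprod g z)
    Mdl (centralizer {wprod g z} ⧸ (zpowers (wprod g z)).subgroupOf (centralizer {wprod g z})) V.length R N' := by
  have := cen_normal (wprod g z)
  have hC := cen_one.symm.trans hC
  have hV : ∀ j, wprod g (wordAt V j) ∈ centralizer {wprod g z} := hC ▸ wordAt_in fun _ h => mem_genW g (List.mem_append_left _ h)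
  let b : Nat → centralizer {wprod g z} := fun j => ⟨_, hV j⟩
  have hb : ∀ w, (wprod b w).1 = wprod g (substW V w) := fun w => by
    rw [wprod_substW]; exact map_wprod (centralizer {wprod g z}).subtype b w
  refine Mdl.of_gen hP hM hs (g := fun j => QuotientGroup.mk' _ (b j)) ?_ (fun r hr => ?_) (j := 0) fun e => ?_
  · rw [← genW_map, eq_top_iff, ← map_top_of_surjective _ (QuotientGroup.mk'_surjective _), Subgroup.map_le_map_iff,
      QuotientGroup.ker_mk', top_le_iff, eq_top_iff]
    intro x _
    have key : genW g (V ++ [z]) ≤ (genW b (gensW V.length) ⊔ (zpowers (wprod g z)).subgroupOf _).map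
        (centralizer {wprod g z}).subtype := genW_le.2 fun w hw => by
      rcases List.mem_append.1 hw with hw | hw
      · obtain ⟨i, hi, rfl⟩ := List.getElem_of_mem hw
        exact ⟨b i, mem_sup_left (mem_gensW _ hi), by rw [← wordAt_getElem]; rfl⟩
      · obtain rfl := List.mem_singleton.1 hw
        exact ⟨⟨_, mem_centralizer_singleton_iff.2 rfl⟩, mem_sup_right (mem_zpowers _), rfl⟩
    obtain ⟨y, hy, e⟩ := key (hC.le x.2)
    exact (Subtype.ext e : y = x) ▸ hy
  · rw [← map_wprod]
    exact (QuotientGroup.eq_one_iff _).2 (mem_subgroupOf.2 (hb r ▸ M.relZ h _ (List.mem_map_of_mem hr)))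
  · obtain ⟨i, hi⟩ := mem_subgroupOf.1 ((QuotientGroup.eq_one_iff _).1 e)
    have hi : wprod g z ^ i = wprod g (wordAt V 0) := hi
    exact hn (hi ▸ Commute.zpow_right (mem_centralizer_singleton_iff.1 (hV 1)) i)

end

/-- Lifting through a centre of exponent two. -/
theorem lift_cen {G H : Type*} [Group G] [Group H] (ψ : G →* H) (hs : Function.Surjective ψ) (hk : ψ.ker = center G)
    (h2 : ∀ z ∈ center G, z * z = 1) {y : H} {p : Nat} (hp : Odd p) (hy : orderOf y = p) :
    ∃ A : Subgroup G, Nat.card A = p ∧ ∃ _ : ((A ⊔ center G).subgroupOf (centralizer (A : Set G))).Normal,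
      haveI := cen_normal y
      Nonempty ((centralizer {y} ⧸ (zpowers y).subgroupOf (centralizer {y})) ≃*
        centralizer (A : Set G) ⧸ (A ⊔ center G).subgroupOf (centralizer (A : Set G))) := by
  have := cen_normal y
  obtain ⟨m, hm⟩ := hp
  obtain ⟨x0, hx0⟩ := hs y
  have yp : y ^ p = 1 := hy ▸ pow_orderOf_eq_one y
  have h0 : x0 ^ p ∈ center G := hk ▸ (by rw [MonoidHom.mem_ker, map_pow, hx0, yp] : x0 ^ p ∈ ψ.ker)
  obtain ⟨x, hx, xp⟩ : ∃ x, ψ x = y ∧ x ^ p = 1 := ⟨x0 ^ (p + 1), by rw [map_pow, hx0, pow_succ, yp, one_mul], by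
    rw [← pow_mul, mul_comm, pow_mul, show p + 1 = 2 * (m + 1) by omega, pow_mul, pow_two, h2 _ h0, one_pow]⟩
  have ox : orderOf x = p := Nat.dvd_antisymm (orderOf_dvd_of_pow_eq_one xp) (hy ▸ hx ▸ orderOf_map_dvd ψ x)
  have cz : centralizer ((zpowers x : Subgroup G) : Set G) = centralizer {x} := by rw [zpowers_eq_closure, centralizer_closure]
  have hc : ∀ c, c ∈ centralizer ((zpowers x : Subgroup G) : Set G) ↔ ψ c ∈ centralizer {y} := fun c => by
    rw [cz, mem_centralizer_singleton_iff, mem_centralizer_singleton_iff]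
    refine ⟨fun h => by rw [← hx, ← map_mul, h, map_mul], fun h => ?_⟩
    have a : c * x * c⁻¹ * x⁻¹ ∈ center G := hk ▸ (by
      rw [MonoidHom.mem_ker, map_mul, map_mul, map_mul, map_inv, map_inv, hx, h]; group : _ ∈ ψ.ker)
    generalize hz : c * x * c⁻¹ * x⁻¹ = z at a
    have e : c * x * c⁻¹ = z * x := by rw [← hz]; group
    have e2 : z ^ p = 1 := by
      have := congrArg (· ^ p) e
      simp only [conj_pow, xp] at this
      rw [Commute.mul_pow (mem_center_iff.1 a x).symm, xp] at this
      simpa using this.symm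
    rw [hm, pow_succ, pow_mul, pow_two, h2 z a, one_pow, one_mul] at e2
    rw [e2, one_mul] at e
    exact mul_inv_eq_iff_eq_mul.1 e
  let φ : centralizer ((zpowers x : Subgroup G) : Set G) →* centralizer {y} :=
    (ψ.comp (centralizer _).subtype).codRestrict _ fun c => (hc c).1 c.2
  let θ := (QuotientGroup.mk' ((zpowers y).subgroupOf (centralizer {y}))).comp φ
  have s1 : Function.Surjective θ := (QuotientGroup.mk'_surjective _).comp fun c => by
    obtain ⟨d, hd⟩ := hs c
    exact ⟨⟨d, (hc d).2 (hd ▸ c.2)⟩, Subtype.ext hd⟩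
  have s2 : θ.ker = (zpowers x ⊔ center G).subgroupOf _ := by
    ext c
    rw [MonoidHom.mem_ker, mem_subgroupOf, ← hk, ← comap_map_eq, MonoidHom.map_zpowers, hx]
    exact (QuotientGroup.eq_one_iff _).trans mem_subgroupOf
  have s3 : ((zpowers x ⊔ center G).subgroupOf (centralizer ((zpowers x : Subgroup G) : Set G))).Normal := s2 ▸ inferInstance
  exact ⟨zpowers x, by rw [Nat.card_zpowers, ox], s3,
    ⟨(QuotientGroup.quotientKerEquivOfSurjective θ s1).symm.trans (QuotientGroup.quotientMulEquivOfEq s2)⟩⟩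

end CfsgH7
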