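import Cfsg.Agent.H7.Xs.Sec
import Cfsg.Agent.H7.Xs.Set
import Cfsg.Agent.H7.Lee.Co1

set_option autoImplicit false
set_option maxRecDepth 100000

namespace CfsgH7.Co1

open Cfsg Subgroup

theorem lift {y : G0} {p : Nat} (hp : Odd p) (hy : orderOf y = p) {S : Type} [Group S]
    (e : haveI := cen_normal y; Nonempty (S ≃* centralizer {y} ⧸ (zpowers y).subgroupOf (centralizer {y}))) :
    ∃ A : Subgroup Co0, Nat.card A = p ∧ ∃ _ : ((A ⊔ center Co0).subgroupOf (centralizer (A : Set Co0))).Normal,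
      Nonempty (S ≃* centralizer (A : Set Co0) ⧸ (A ⊔ center Co0).subgroupOf (centralizer (A : Set Co0))) := by
  have := cen_normal y
  obtain ⟨f, -⟩ := iso
  obtain ⟨A, h1, h2, ⟨a⟩⟩ := lift_cen (f.toMonoidHom.comp (QuotientGroup.mk' (center Co0)))
    (f.surjective.comp (QuotientGroup.mk'_surjective _))
    (Subgroup.ext fun x => (f.map_eq_one_iff).trans (QuotientGroup.eq_one_iff x)) (fun z hz => by
      rw [center_eq] at hz
      obtain ⟨i, rfl⟩ := hz
      show Lee.neg1 ^ i * Lee.neg1 ^ i = 1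
      rw [← (Commute.refl _).mul_zpow, neg1_sq, one_zpow]) hp hy
  exact ⟨A, h1, h2, e.elim fun e => ⟨e.trans a⟩⟩

theorem ncomm {S : Type} [Group S] {a b : S} (h : a * b ≠ b * a) : ¬ IsMulCommutative S := fun ⟨⟨c⟩⟩ => h (c a b)

end CfsgH7.Co1
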