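import Cfsg.Agent.H7.Xs.SecC
import Cfsg.Agent.H7.Xs.J2
import Cfsg.Agent.H7.Xs.Co1J2
import Cfsg.Agent.S0824
import Cfsg.Agent.H7.Ico.Rep
import Cfsg.Agent.H5.GrpAux

set_option autoImplicit false
set_option maxRecDepth 100000

namespace CfsgH7.J2m.Xs

open CfsgH7.J2m Cfsg

theorem ha : wprod g0 [2,2,1,3,4,1,2,4] * wprod g0 xz = wprod g0 (substW xS [4,6]) * wprod g0 [2,2,1,3,4,1,2,4] := by
  rw [← wprod_app, ← wprod_app]; exact M0.eq (by decide +kernel)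
theorem hb : wprod g0 (rinv (substW xS [4,6]) xz) ≠ 1 := M0.neP (by decide +kernel)

theorem om : Nonempty (alternatingGroup (Fin 5) ≃* Omega (ZMod 2) (quadFormMinus 1 (ZMod 2) 1 1)) :=
  (Cfsg.Agent.S0824.result (F := ZMod 2) (by simp)).elim fun e =>
    ⟨((CfsgH5.commutatorEquiv e).trans (MulEquiv.subgroupCongr (alternatingGroup.commutator_perm_eq (by simp)))).symm⟩

theorem set : Setg (wprod g0 xz) 5 (Omega (ZMod 2) (quadFormMinus 1 (ZMod 2) 1 1)) :=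
  (xX M0).setg (xz2 M0) (substW_mem_genW _ _ _) ha (wprod_rinv' hb) fun _ _ h =>
    (A5m.iso h).elim fun a => A5m.alt.elim fun b => om.elim fun c => ⟨(a.symm.trans b).trans c⟩

theorem nc : ¬ IsMulCommutative G0 := Co1.ncomm (M0.noncomm [0] [4] 0 (by decide +kernel))

theorem sec : ∃ A : Subgroup Co0, Nat.card A = 5 ∧
    ∃ _ : ((A ⊔ Subgroup.center Co0).subgroupOf (Subgroup.centralizer (A : Set Co0))).Normal,
      Nonempty (G0 ≃* Subgroup.centralizer (A : Set Co0) ⧸ (A ⊔ Subgroup.center Co0).subgroupOf (Subgroup.centralizer (A : Set Co0))) :=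
  haveI := cen_normal (wprod Co1.CJ2.g1 Co1.CJ2.xw)
  Co1.lift (by decide) Co1.CJ2.ho (iso (Co1.CJ2.M1.cenQuot (V := Co1.CJ2.V) pr mdl0 simple Co1.CJ2.kC Co1.CJ2.hr Co1.CJ2.hn))

end CfsgH7.J2m.Xs
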