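import Cfsg.Agent.H7.Xs.SecC
import Cfsg.Agent.H7.Xs.SuzX
import Cfsg.Agent.H7.Xs.Co1Suz
import Cfsg.Agent.H7.Mu.Suzc

set_option autoImplicit false
set_option maxRecDepth 100000

namespace CfsgH7.Suz.Xs

open CfsgH7.Suz Cfsg

theorem mdl : Mdl Spor.Suz 5 Suzm.Rf 448345497600 := ⟨Ou.M0.fin, Ou.M0.card, _, Suzm.hs, Suzm.hg⟩

theorem nc : ¬ IsMulCommutative Spor.Suz := Co1.ncomm (Ou.M0.noncomm [0] [2] 1 (by decide +kernel))

theorem sec : ∃ A : Subgroup Co0, Nat.card A = 3 ∧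
    ∃ _ : ((A ⊔ Subgroup.center Co0).subgroupOf (Subgroup.centralizer (A : Set Co0))).Normal,
      Nonempty (Spor.Suz ≃* Subgroup.centralizer (A : Set Co0) ⧸
        (A ⊔ Subgroup.center Co0).subgroupOf (Subgroup.centralizer (A : Set Co0))) :=
  haveI := cen_normal (wprod Co1.CSuz.g1 Co1.CSuz.xw)
  Co1.lift (by decide) Co1.CSuz.ho (Mdl.iso Suzm.pr mdl
    (Co1.CSuz.M1.cenQuot (V := Co1.CSuz.V) Suzm.pr mdl simple Co1.CSuz.kC Co1.CSuz.hr Co1.CSuz.hn))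

end CfsgH7.Suz.Xs
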